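import Mathlib
import Cfsg.Agent.H863.SKerD
import Cfsg.Agent.H863.BGL
import Cfsg.Agent.H138.Spider

/-!
# The splitting of extensions of the Baby Monster by the module of degree 4371 (helper863, for S5590)
-/

set_option autoImplicit false

namespace Cfsg.Agent.H863.SAsm

open Cfsg Cfsg.Agent.Monster Cfsg.Agent.Monster.VecEngine Cfsg.Agent.Monster.VecSpace
open Cfsg.Agent.BabyM.Conc Cfsg.Agent.BabyM.KTab Cfsg.Agent.BabyM.KRow Cfsg.Agent.BabyM.KQ
open Cfsg.Agent.BabyM
open Cfsg.Agent.H863.BRep Cfsg.Agent.H863.BVec Cfsg.Agent.H863.BGrp Cfsg.Agent.H863.BCode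
open Cfsg.Agent.H863.SExt Cfsg.Agent.H863.STT Cfsg.Agent.H863.SLift Cfsg.Agent.H863.SMod
open Cfsg.Spor Cfsg.Spor.BabyMonster

theorem pair_symm {F V H : Type*} [Field F] [AddCommGroup V] [Module F V] [Group H] [Finite H]
    {σ : H →* Module.End F V} {D : QD H} {a b : H} (h : Pair σ D a b) : Pair σ D b a := by
  obtain ⟨S, h1, h3, h4, h5⟩ := h
  exact ⟨S, h1, h4, h3, h5⟩

/-! ### Coxeter relations -/

section cox

variable {E : Type*} [Group E]

theorem comm_of_two {a b : E} (ha : a * a = 1) (hb : b * b = 1) (h : (a * b) ^ 2 = 1) : a * b = b * a := by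
  have h1 : a * b * (a * b) = 1 := by rw [← pow_two]; exact h
  calc a * b = a * b * ((a * b) * (b * a)) := by
        rw [show (a * b) * (b * a) = a * (b * b) * a by simp only [mul_assoc], hb, mul_one, ha, mul_one]
    _ = (a * b * (a * b)) * (b * a) := by simp only [mul_assoc]
    _ = b * a := by rw [h1, one_mul]

theorem two_of_comm {a b : E} (ha : a * a = 1) (hb : b * b = 1) (h : a * b = b * a) : (a * b) ^ 2 = 1 := by
  calc (a * b) ^ 2 = a * (b * a) * b := by rw [pow_two]; simp only [mul_assoc]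
    _ = (a * a) * (b * b) := by rw [← h]; simp only [mul_assoc]
    _ = 1 := by rw [ha, hb, one_mul]

theorem braid_of_three {a b : E} (ha : a * a = 1) (hb : b * b = 1) (h : (a * b) ^ 3 = 1) :
    a * b * a = b * a * b := by
  have h1 : (a * b * a) * (b * a * b) = 1 := by
    rw [← h, pow_succ, pow_two]; simp only [mul_assoc]
  have h3 : (b * a * b) * (b * a * b) = 1 := by
    calc (b * a * b) * (b * a * b) = b * a * (b * b) * (a * b) := by simp only [mul_assoc]
      _ = b * (a * a) * b := by rw [hb]; simp only [mul_assoc, one_mul]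
      _ = 1 := by rw [ha, mul_one, hb]
  exact mul_right_cancel (h1.trans h3.symm)

theorem pow_swap {a b : E} (ha : a * a = 1) (hb : b * b = 1) {m : ℕ} (h : (a * b) ^ m = 1) : (b * a) ^ m = 1 := by
  have e : b * a = (a * b)⁻¹ := by
    rw [mul_inv_rev, ← eq_inv_of_mul_eq_one_left ha, ← eq_inv_of_mul_eq_one_left hb]
  rw [e, inv_pow, h, inv_one]

end cox

/-- The number of a generator. -/
def gen : ℕ → Gen
  | 1 => .t1
  | 2 => .t2
  | 3 => .t3
  | 4 => .t4
  | 5 => .t5
  | 6 => .t6
  | 7 => .t7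
  | 8 => .t8
  | 9 => .t9
  | 10 => .t10
  | 11 => .t11
  | _ => .t1

theorem lab2' : ∀ i j : Fin 12, i.1 < j.1 → 1 ≤ i.1 →
    (i.1, j.1) ∉ [(1,2),(2,3),(3,4),(4,5),(5,6),(6,7),(7,8),(5,9),(9,10),(10,11)] →
    coxLabel edges (gen i.1) (gen j.1) = 2 := by
  decide +kernel

theorem lab2 (i : ℕ) (hi : i < 12) (j : ℕ) (hj : j < 12) (h : i < j) (h1 : 1 ≤ i)
    (h3 : (i, j) ∉ [(1,2),(2,3),(3,4),(4,5),(5,6),(6,7),(7,8),(5,9),(9,10),(10,11)]) :
    coxLabel edges (gen i) (gen j) = 2 := lab2' ⟨i, hi⟩ ⟨j, hj⟩ h h1 h3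

theorem lab3 : ∀ p ∈ [(1,2),(2,3),(3,4),(4,5),(5,6),(6,7),(7,8),(5,9),(9,10),(10,11)],
    coxLabel edges (gen p.1) (gen p.2) = 3 := by
  decide +kernel

/-- The even generators. -/
def ev : Gen → Bool
  | .t1 => true
  | .t3 => true
  | .t5 => true
  | .t7 => true
  | .t10 => true
  | _ => false

theorem odd_q {t : Gen} (h : ev t = false) : (BM.StageW.tw t).all isq = true := by
  cases t <;> first | exact absurd h (by decide) | decide

theorem ev_label {a b : Gen} (ha : ev a = true) (hb : ev b = true) (h : a ≠ b) : coxLabel edges a b = 2 := by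
  revert ha hb h
  cases a <;> cases b <;> decide

section

variable {F : Type*} [Field F] (h2 : (2 : F) ≠ 0) {E : Type*} [Group E] (X : Ext (sigma h2) E)

section

variable {sQ : D.Q →* E} (hQs : X.IsSec sQ) {y : Gen → E}
  (ho : ∀ (t : Gen) (h : ev t = false), y t = sQ ⟨x t, gW_mem_Q (odd_q h)⟩)
  (he : ∀ t : Gen, ev t = true → Good X D sQ (x t) (y t))
  (hc : ∀ a b : Gen, ev a = true → ev b = true → a ≠ b → y a * y b = y b * y a)

include ho he in
theorem sq_E (t : Gen) : y t * y t = 1 := by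
  cases h : ev t
  · rw [ho t h, ← map_mul]
    have : (⟨x t, gW_mem_Q (odd_q h)⟩ : D.Q) * ⟨x t, gW_mem_Q (odd_q h)⟩ = 1 := Subtype.ext (x_sq t)
    rw [this, map_one]
  · exact (he t h).sq (x_sq t)

include hQs ho he in
theorem π_E (t : Gen) : X.π (y t) = x t := by
  cases h : ev t
  · rw [ho t h, hQs]
  · exact (he t h).π

theorem cox_G (a b : Gen) : (x a * x b) ^ coxLabel edges a b = 1 :=
  BM.StageW.cox Instance.all Instance.ok a b

include ho he hc in
theorem cox_E (a b : Gen) : (y a * y b) ^ coxLabel edges a b = 1 := by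
  cases h : ev a
  · cases h' : ev b
    · rw [ho a h, ho b h', ← map_mul, ← map_pow]
      have : ((⟨x a, gW_mem_Q (odd_q h)⟩ : D.Q) * ⟨x b, gW_mem_Q (odd_q h')⟩) ^ coxLabel edges a b = 1 :=
        Subtype.ext (cox_G a b)
      rw [this, map_one]
    · rw [ho a h]
      exact (he b h').rel ⟨x a, gW_mem_Q (odd_q h)⟩ _ (cox_G a b)
  · cases h' : ev b
    · apply pow_swap (sq_E h2 X ho he b) (sq_E h2 X ho he a)
      rw [ho b h']
      exact (he a h).rel ⟨x b, gW_mem_Q (odd_q h')⟩ _ (pow_swap (x_sq a) (x_sq b) (cox_G a b))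
    · by_cases hab : a = b
      · subst hab
        have : coxLabel edges a a = 1 := if_pos rfl
        rw [this, pow_one]
        exact sq_E h2 X ho he a
      · rw [ev_label h h' hab]
        exact two_of_comm (sq_E h2 X ho he a) (sq_E h2 X ho he b) (hc a b h h' hab)

include hQs ho he hc in
theorem long (h3 : (3 : F) ≠ 0) :
    (y .t5 * y .t4 * y .t3 * y .t5 * y .t6 * y .t7 * y .t5 * y .t9 * y .t10) ^ 10 = 1 ∧
      (y .t5 * y .t4 * y .t3 * y .t6 * y .t7 * y .t8 * y .t9) ^ 9 = 1 ∧
      (y .t5 * y .t4 * y .t3 * y .t6 * y .t9 * y .t10 * y .t11) ^ 9 = 1 := by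
  have hsq := sq_E h2 X ho he
  have hcox := cox_E h2 X ho he hc
  have hπ := π_E h2 X hQs ho he
  have key := H138.Spider.lift X.π (fun i => y (gen i)) (fun i _ _ => hsq _)
    (fun i j h1 h4 h5 h6 => comm_of_two (hsq _) (hsq _) (by
      have := hcox (gen i) (gen j)
      rwa [lab2 i (by omega) j (by omega) h4 h1 h6] at this))
    (fun i j h => braid_of_three (hsq _) (hsq _) (by
      have := hcox (gen i) (gen j)
      rwa [lab3 (i, j) h] at this))
    (fun a b ha hb => by
      obtain ⟨u, rfl⟩ := X.ker a ha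
      obtain ⟨v, rfl⟩ := X.ker b hb
      exact X.j_comm u v)
    (fun a ha haa => by
      obtain ⟨u, rfl⟩ := X.ker a ha
      rw [← X.j_add, ← X.j_zero] at haa
      have h1 := X.j_inj haa
      rw [← two_smul F] at h1
      rw [(smul_eq_zero.1 h1).resolve_left h2, X.j_zero])
    (fun a ha haa => by
      obtain ⟨u, rfl⟩ := X.ker a ha
      rw [← X.j_add, ← X.j_add, ← X.j_zero] at haa
      have h1 := X.j_inj haa
      have h4 : (3 : F) • u = 0 := by
        rw [← h1]
        have : (3 : F) = 1 + 1 + 1 := by norm_num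
        rw [this, add_smul, add_smul, one_smul]
      rw [(smul_eq_zero.1 h4).resolve_left h3, X.j_zero])
    (by
      simp only [gen, map_pow, map_mul, hπ]
      exact BM.StageW.spider Instance.all Instance.ok)
    (by
      simp only [gen, map_pow, map_mul, hπ]
      exact BM.StageW.e7a Instance.all Instance.ok)
    (by
      simp only [gen, map_pow, map_mul, hπ]
      exact BM.StageW.e7b Instance.all Instance.ok)
  exact key

include hQs ho he hc in
theorem rel_E (h3 : (3 : F) ≠ 0) :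
    ∀ r ∈ coxRelators BabyMonster.edges ∪ {r | r ∈ BabyMonster.extra}, FreeGroup.lift y r = 1 := by
  obtain ⟨k1, k2, k3⟩ := long h2 X hQs ho he hc h3
  rintro r (⟨a, -, b, -, rfl⟩ | hr)
  · rw [map_pow, map_mul, FreeGroup.lift_apply_of, FreeGroup.lift_apply_of]
    exact cox_E h2 X ho he hc a b
  · have hr' : r ∈ BabyMonster.extra := hr
    unfold BabyMonster.extra at hr'
    simp only [List.mem_cons, List.not_mem_nil, or_false] at hr'
    rcases hr' with rfl | rfl | rfl
    · simpa only [map_pow, map_mul, FreeGroup.lift_apply_of] using k1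
    · simpa only [map_pow, map_mul, FreeGroup.lift_apply_of] using k2
    · simpa only [map_pow, map_mul, FreeGroup.lift_apply_of] using k3

end

/-- **The section.** -/
theorem split (h3 : (3 : F) ≠ 0) : ∃ s : BabyMonster →* E, ∀ g, X.π (s g) = BGL.iso g := by
  obtain ⟨S1, hS1, -, hQ1⟩ := SPair.s1
  have hQF : (Nat.card D.Q : F) ≠ 0 := (hS1.mono hQ1).ne_zero h2 h3
  obtain ⟨sQ, hQs⟩ := X.exists_sec D.Q hQF
  have good : ∀ {t : Gen}, (∃ S : Subgroup G, TT S ∧ x t ∈ S ∧ D.Q ≤ S) → ∃ z, Good X D sQ (x t) z := by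
    rintro t ⟨S, hS, ht, hQ⟩
    exact good_exists h2 h3 hQs hS ht hQ
  have hI : InU (sigma h2) D (Pi.single bI 1 : Lane U → F) := by
    rw [inU_iff]
    show ∀ i, ¬ Cd.isU i → (Pi.single bI 1 : Lane U → F) i = 0
    intro i hi
    rw [Pi.single_eq_of_ne]
    rintro rfl
    exact hi BTI.isU_I
  obtain ⟨x1, x3, x5, x7, x10, g1, g3, g5, g7, g10, c13, c15, c17, c110, c35, c37, c310, c57, c510, c710⟩ :=
    five h2 h3 hQs (t1 := x .t1) (t3 := x .t3) (t5 := x .t5) (t7 := x .t7) (t10 := x .t10) hI (SKer.f5 h2)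
    (by
      rintro a (rfl | rfl | rfl | rfl | rfl)
      exacts [good SPair.s1, good SPair.s3, good SPair.s5, good SPair.s7, good SPair.s10])
    SPair.c3_5.symm SPair.c1_5.symm SPair.c5_7 SPair.c5_10 SPair.c1_3 SPair.c1_7 SPair.c1_10 SPair.c3_7
    SPair.c3_10 SPair.c7_10 (pair_symm (SPair.p3_5 h2)) (pair_symm (SPair.p1_5 h2)) (SPair.p5_7 h2)
    (SPair.p5_10 h2) (SPair.p1_3 h2) (SPair.p1_7 h2) (SPair.p1_10 h2) (SPair.p3_7 h2) (SPair.p3_10 h2)
    (SPair.p7_10 h2) (SKer.kc1_3 h2) (SKer.kc1_7 h2) (SKer.kc1_10 h2) (SKer.kc3_7 h2) (SKer.kc3_10 h2)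
    (SKer.kc7_10 h2) (SKer.nz3_7 h2) (SKer.nz3_10 h2) (SKer.nz7_10 h2)
  let yo : (t : Gen) → ev t = false → E := fun t h => sQ ⟨x t, gW_mem_Q (odd_q h)⟩
  let y : Gen → E := fun t => match t with
    | .t1 => x1
    | .t2 => yo .t2 rfl
    | .t3 => x3
    | .t4 => yo .t4 rfl
    | .t5 => x5
    | .t6 => yo .t6 rfl
    | .t7 => x7
    | .t8 => yo .t8 rfl
    | .t9 => yo .t9 rfl
    | .t10 => x10
    | .t11 => yo .t11 rfl
  have ho : ∀ (t : Gen) (h : ev t = false), y t = sQ ⟨x t, gW_mem_Q (odd_q h)⟩ := by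
    intro t h
    cases t <;> first | exact absurd h (by decide) | rfl
  have he : ∀ t : Gen, ev t = true → Good X D sQ (x t) (y t) := by
    intro t h
    cases t
    · exact g1
    · exact absurd h (by decide)
    · exact g3
    · exact absurd h (by decide)
    · exact g5
    · exact absurd h (by decide)
    · exact g7
    · exact absurd h (by decide)
    · exact absurd h (by decide)
    · exact g10
    · exact absurd h (by decide)
  have hc : ∀ a b : Gen, ev a = true → ev b = true → a ≠ b → y a * y b = y b * y a := by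
    intro a b ha hb hab
    cases a <;> first | exact absurd ha (by decide) | skip
    all_goals cases b <;> first | exact absurd hb (by decide) | exact absurd rfl hab | skip
    exacts [c13, c15, c17, c110, c13.symm, c35, c37, c310, c15.symm, c35.symm, c57, c510, c17.symm, c37.symm,
      c57.symm, c710, c110.symm, c310.symm, c510.symm, c710.symm]
  let s : BabyMonster →* E := PresentedGroup.toGroup (rel_E h2 X hQs ho he hc h3)
  have hs : ∀ t : Gen, s (PresentedGroup.of t) = y t := fun t => PresentedGroup.toGroup.of _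
  refine ⟨s, fun g => ?_⟩
  have h4 : X.π.comp s = (BGL.iso : BabyMonster →* G) := by
    apply PresentedGroup.ext
    intro t
    show X.π (s (PresentedGroup.of t)) = BGL.iso (PresentedGroup.of t)
    rw [hs, π_E h2 X hQs ho he]
    exact (BM.KHAll.iso_gB t).symm
  exact DFunLike.congr_fun h4 g

end

end Cfsg.Agent.H863.SAsm
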