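import Mathlib
import Cfsg.Agent.H863.SAsm

/-!
# Extensions of the Baby Monster (helper863, for S5590)
-/

set_option autoImplicit false

namespace Cfsg.Agent.H863.SFin

open Cfsg Cfsg.Agent.Monster Cfsg.Agent.Monster.VecEngine Cfsg.Agent.Monster.VecSpace
open Cfsg.Agent.BabyM.Conc Cfsg.Agent.BabyM.KTab Cfsg.Agent.BabyM.KRow
open Cfsg.Agent.BabyM
open Cfsg.Agent.H863.BRep Cfsg.Agent.H863.SExt

section

variable {F : Type*} [Field F] (h2 : (2 : F) ≠ 0) {n : Type} [Fintype n] [DecidableEq n]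
  {ρ : Cfsg.Spor.BabyMonster →* GL n F}
  (e₀ : (Lane U → F) ≃ₗ[F] (n → F))
  (he₀ : ∀ g m, (ρ g : Matrix n n F).mulVec (e₀ m) = e₀ (sigma h2 (BGL.iso g) m))
  {E : Type*} [Group E] (A : Subgroup E) [A.Normal] (e : E ⧸ A ≃* Cfsg.Spor.BabyMonster)
  (φ : Additive ↥A ≃+ (n → F))
  (hφ : ∀ (g : E) (a b : ↥A), (b : E) = g * a * g⁻¹ → φ (Additive.ofMul b) =
      (ρ (e (QuotientGroup.mk g)) : Matrix n n F).mulVec (φ (Additive.ofMul a)))

/-- The projection. -/
noncomputable def pi : E →* G := (BGL.iso : Cfsg.Spor.BabyMonster →* G).comp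
  ((e : E ⧸ A →* Cfsg.Spor.BabyMonster).comp (QuotientGroup.mk' A))

theorem pi_apply (x : E) : pi A e x = BGL.iso (e (QuotientGroup.mk x)) := rfl

theorem pi_eq_one (x : E) : pi A e x = 1 ↔ x ∈ A := by
  rw [pi_apply, map_eq_one_iff _ BGL.iso.injective, map_eq_one_iff _ e.injective, QuotientGroup.eq_one_iff]

include he₀ hφ in
theorem exists_ext : ∃ X : Ext (sigma h2) E, X.π = pi A e := by
  refine ⟨{ π := pi A e, surj := ?_, j := fun v => ((φ.symm (e₀ v)).toMul : E), j_add := ?_, j_inj := ?_, ker := ?_, π_j := ?_, conj := ?_ }, rfl⟩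
  · intro g
    obtain ⟨x, hx⟩ := QuotientGroup.mk_surjective (e.symm (BGL.iso.symm g))
    exact ⟨x, by rw [pi_apply, hx, MulEquiv.apply_symm_apply, MulEquiv.apply_symm_apply]⟩
  · intro a b
    show ((φ.symm (e₀ (a + b))).toMul : E) = ((φ.symm (e₀ a)).toMul : E) * ((φ.symm (e₀ b)).toMul : E)
    rw [map_add, map_add, toMul_add]
    rfl
  · intro a b h
    have h1 : (φ.symm (e₀ a)).toMul = (φ.symm (e₀ b)).toMul := Subtype.ext h
    exact e₀.injective (φ.symm.injective (Additive.toMul.injective h1))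
  · intro x hx
    rw [pi_eq_one] at hx
    refine ⟨e₀.symm (φ (Additive.ofMul ⟨x, hx⟩)), ?_⟩
    show x = ((φ.symm (e₀ (e₀.symm (φ (Additive.ofMul ⟨x, hx⟩))))).toMul : E)
    rw [LinearEquiv.apply_symm_apply, AddEquiv.symm_apply_apply]
    rfl
  · intro v
    rw [pi_eq_one]
    exact Subtype.property _
  · intro x v
    set a : A := (φ.symm (e₀ v)).toMul with ha
    have hb : x * a * x⁻¹ ∈ A := Subgroup.Normal.conj_mem inferInstance _ a.2 x
    have h1 := hφ x a ⟨_, hb⟩ rfl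
    have h3 : φ (Additive.ofMul a) = e₀ v := by
      rw [ha]
      exact φ.apply_symm_apply _
    rw [h3, he₀, ← pi_apply A e x] at h1
    have h4 : φ.symm (e₀ (sigma h2 (pi A e x) v)) = Additive.ofMul ⟨_, hb⟩ := by
      rw [← h1, AddEquiv.symm_apply_apply]
    show x * (a : E) = ((φ.symm (e₀ (sigma h2 (pi A e x) v))).toMul : E) * x
    rw [h4]
    show x * (a : E) = x * a * x⁻¹ * x
    rw [inv_mul_cancel_right]

include he₀ hφ in
theorem complement (h3 : (3 : F) ≠ 0) : ∃ K : Subgroup E, A.IsComplement' K := by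
  obtain ⟨X, hX⟩ := exists_ext h2 e₀ he₀ A e φ hφ
  obtain ⟨s, hs⟩ := SAsm.split h2 X h3
  refine ⟨s.range, Subgroup.isComplement'_of_disjoint_and_mul_eq_univ ?_ ?_⟩
  · rw [Subgroup.disjoint_def]
    rintro x hx ⟨g, rfl⟩
    rw [← pi_eq_one A e, ← hX, hs, map_eq_one_iff _ BGL.iso.injective] at hx
    rw [hx, map_one]
  · rw [Set.eq_univ_iff_forall]
    intro x
    refine Set.mem_mul.2 ⟨x * (s (BGL.iso.symm (X.π x)))⁻¹, ?_, s (BGL.iso.symm (X.π x)), ⟨_, rfl⟩,
      inv_mul_cancel_right _ _⟩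
    show _ ∈ A
    rw [← pi_eq_one A e, ← hX, map_mul, map_inv, hs, MulEquiv.apply_symm_apply, mul_inv_cancel]

end

end Cfsg.Agent.H863.SFin
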